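import Cfsg.Agent.BrauerInd.Local
import Cfsg.Agent.Blocks.Glauberman
import Cfsg.Agent.Clifford.Ito
import Cfsg.Agent.Clifford.LinChar
import Cfsg.Agent.Exceptional.Virtual

/-!
# Detecting an invariant character over a normal subgroup of `p`-power index on a `p`-elementary subgroup
-/

set_option autoImplicit false
set_option linter.unusedSectionVars false
set_option linter.style.haveILetI false

namespace CfsgLib.PDetect

open Cfsg CfsgLib.CharBasics
open scoped ComplexConjugate commutatorElement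

universe u

variable {G : Type u} [Group G]

theorem exists_fixed_not_dvd {S X : Type*} [Group S] [Finite S] [Fintype X] [MulAction S X] {p : ℕ}
    [Fact p.Prime] (hS : IsPGroup p S) (f : X → ℤ) (hf : ∀ (s : S) (x : X), f (s • x) = f x)
    (hsum : ¬ (p : ℤ) ∣ ∑ x, f x) : ∃ x : X, (∀ s : S, s • x = x) ∧ ¬ (p : ℤ) ∣ f x := by
  classical
  by_contra hne
  push Not at hne
  apply hsum
  rw [← (MulAction.selfEquivSigmaOrbits S X).symm.sum_comp, Fintype.sum_sigma]
  refine Finset.dvd_sum fun ω _ => ?_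
  rw [Finset.sum_congr rfl (g := fun _ => f ω.out) fun y _ => ?_]
  swap
  · obtain ⟨s, hs⟩ := y.2
    have : (MulAction.selfEquivSigmaOrbits S X).symm ⟨ω, y⟩ = (y : X) := rfl
    rw [this, ← hs, hf]
  rw [Finset.sum_const, Finset.card_univ, nsmul_eq_mul]
  obtain ⟨n, hn⟩ := hS.card_orbit ω.out
  rw [Nat.card_eq_fintype_card] at hn
  rcases n with _ | n
  · refine Dvd.dvd.mul_left (hne _ fun s => ?_) _
    rw [pow_zero, Fintype.card_eq_one_iff] at hn
    obtain ⟨y, hy⟩ := hn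
    have h1 := hy ⟨s • ω.out, MulAction.mem_orbit _ _⟩
    have h2 := hy ⟨ω.out, MulAction.mem_orbit_self _⟩
    exact congrArg Subtype.val (h1.trans h2.symm)
  · refine Dvd.dvd.mul_right ?_ _
    rw [hn]; push_cast
    exact dvd_pow_self _ (Nat.succ_ne_zero n)

/-- An elementary group is generated by its central cyclic part and a Sylow subgroup. -/
theorem elementary_split [Finite G] {p : ℕ} [hp : Fact p.Prime] (hE : Cfsg.IsElementary p G) (P : Sylow p G) :
    ∃ x : G, x ∈ Subgroup.center G ∧ Nat.Coprime (orderOf x) p ∧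
      ∀ z : G, ∃ i : ℤ, ∃ u ∈ (P : Subgroup G), z = x ^ i * u := by
  obtain ⟨x, hxc, hcop, k, hk⟩ := hE
  have hcardE : orderOf x * p ^ k = Nat.card G := by
    rw [← Nat.card_zpowers, ← hk, Subgroup.card_mul_index]
  have hP : Nat.card (P : Subgroup G) = p ^ k := by
    rw [P.card_eq_multiplicity, ← hcardE, Nat.factorization_mul (orderOf_pos x).ne' (pow_ne_zero _ hp.out.ne_zero),
      Finsupp.add_apply, hp.out.factorization_pow, Finsupp.single_eq_same,
      Nat.factorization_eq_zero_of_not_dvd fun hd => hp.out.one_lt.ne' (Nat.eq_one_of_dvd_coprimes hcop hd dvd_rfl),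
      zero_add]
  have hcompl : Subgroup.IsComplement' (Subgroup.zpowers x) (P : Subgroup G) :=
    Subgroup.isComplement'_of_coprime (by rw [Nat.card_zpowers, hP, hcardE])
      (by rw [Nat.card_zpowers, hP]; exact hcop.pow_right k)
  refine ⟨x, hxc, hcop, fun z => ?_⟩
  obtain ⟨⟨⟨a, i, rfl⟩, u⟩, hz⟩ := hcompl.2 z
  exact ⟨i, u, u.2, hz.symm⟩

theorem sum_inf (N E : Subgroup G) [Fintype N] [Fintype ↥(E ⊓ N)] (f : G → ℂ) (φ : E → ℂ) :
    ∑ n : N, f n * extendByZero E φ (n : G) = ∑ d : ↥(E ⊓ N), f d * φ ⟨(d : G), d.2.1⟩ := by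
  classical
  refine (Finset.sum_bij_ne_zero (fun (d : ↥(E ⊓ N)) _ _ => (⟨(d : G), d.2.2⟩ : N)) (fun _ _ _ => Finset.mem_univ _)
    (fun a _ _ b _ _ h => Subtype.ext (congrArg (fun z : N => (z : G)) h)) (fun n _ hn => ?_) (fun d _ _ => ?_)).symm
  · have hnE : (n : G) ∈ E := by
      by_contra h
      exact hn (by rw [extendByZero_of_not_mem E φ h, mul_zero])
    refine ⟨⟨(n : G), hnE, n.2⟩, Finset.mem_univ _, ?_, rfl⟩
    rwa [show extendByZero E φ (n : G) = φ ⟨(n : G), hnE⟩ from extendByZero_coe E φ ⟨_, hnE⟩] at hn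
  · show _ = f d * extendByZero E φ ((⟨(d : G), d.2.1⟩ : E) : G)
    rw [extendByZero_coe]

theorem sup_card (N E : Subgroup G) [N.Normal] :
    Nat.card E * Nat.card N = Nat.card ↥(E ⊔ N) * Nat.card ↥(E ⊓ N) := by
  have h1 : Nat.card N * N.relIndex E = Nat.card ↥(E ⊔ N) := by
    rw [← Subgroup.relIndex_sup_right, ← Nat.card_congr (Subgroup.subgroupOfEquivOfLe (le_sup_right : N ≤ E ⊔ N)).toEquiv]
    exact (N.subgroupOf (E ⊔ N)).card_mul_index
  have h2 : Nat.card ↥(E ⊓ N) * N.relIndex E = Nat.card E := by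
    rw [← Subgroup.inf_relIndex_right, inf_comm N E,
      ← Nat.card_congr (Subgroup.subgroupOfEquivOfLe (inf_le_left : E ⊓ N ≤ E)).toEquiv]
    exact ((E ⊓ N).subgroupOf E).card_mul_index
  rw [← h1, ← h2]; ring

theorem index_dvd_of_sup_ne_top [Finite G] {p : ℕ} (hp : p.Prime) {N : Subgroup G} {k : ℕ} (hind : N.index = p ^ k)
    {K : Subgroup G} (hNK : N ≤ K) (hK : K ≠ ⊤) : p ∣ K.index := by
  have h := Subgroup.index_dvd_of_le hNK
  rw [hind] at h
  obtain ⟨j, -, hj⟩ := (Nat.dvd_prime_pow hp).1 h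
  rcases j with _ | j
  · exact absurd (Subgroup.index_eq_one.1 (by rw [hj, pow_zero])) hK
  · rw [hj]; exact dvd_pow_self p (Nat.succ_ne_zero j)

/-- Conjugation on the intersection with a normal subgroup. -/
def infConj (E N : Subgroup G) [hN : N.Normal] : E →* MulAut ↥(E ⊓ N) where
  toFun g :=
    { toFun := fun x => ⟨g * x * (g : G)⁻¹, E.mul_mem (E.mul_mem g.2 x.2.1) (E.inv_mem g.2), hN.conj_mem _ x.2.2 _⟩
      invFun := fun x => ⟨(g : G)⁻¹ * x * g, E.mul_mem (E.mul_mem (E.inv_mem g.2) x.2.1) g.2,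
        by simpa using hN.conj_mem _ x.2.2 (g : G)⁻¹⟩
      left_inv := fun x => Subtype.ext (by simp [mul_assoc])
      right_inv := fun x => Subtype.ext (by simp [mul_assoc])
      map_mul' := fun a b => Subtype.ext (by simp [mul_assoc]) }
  map_one' := MulEquiv.ext fun x => Subtype.ext (by simp)
  map_mul' a b := MulEquiv.ext fun x => Subtype.ext (by simp [mul_assoc])

theorem detect [Fintype G] {p : ℕ} [hp : Fact p.Prime] (N : Subgroup G) [hN : N.Normal] [Fintype N]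
    (hind : ∃ k : ℕ, N.index = p ^ k) {ϑ : N → ℂ} (hϑ : IsIrrCharacter N ϑ)
    (hinv : ∀ (g : G) (n : N), ϑ ⟨g * n * g⁻¹, hN.conj_mem (n : G) n.2 g⟩ = ϑ n) :
    ∃ E : Subgroup G, Cfsg.IsElementary p E ∧ E ⊔ N = ⊤ ∧ ∀ [Fintype ↥(E ⊓ N)],
      ∃ ψ : IrrCharacter ↥(E ⊓ N), (∀ (g : E) (x : ↥(E ⊓ N)),
          (ψ : ↥(E ⊓ N) → ℂ) (infConj E N g x) = (ψ : ↥(E ⊓ N) → ℂ) x) ∧
        ∃ m : ℕ, ¬ p ∣ m ∧ classInner (fun x : ↥(E ⊓ N) => ϑ ⟨(x : G), x.2.2⟩) (ψ : ↥(E ⊓ N) → ℂ) = m := by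
  classical
  haveI : ∀ K : Subgroup G, Fintype K := fun K => Fintype.ofFinite _
  obtain ⟨k, hk⟩ := hind
  obtain ⟨m, hm, hmem⟩ := BrauerLocal.local_induction (G := G) p
  let f0 : G → ℂ := fun g => if h : g ∈ N then ϑ ⟨g, h⟩ * conj (ϑ ⟨g, h⟩) else 0
  have hf0 : ∀ n : N, f0 n = ϑ n * conj (ϑ n) := fun n => dif_pos n.2
  have hϑc := CharBasics.isClassFunction (isCharacter_of_irr hϑ)
  let T : (G → ℂ) → ℂ := fun F => (Nat.card N : ℂ)⁻¹ * ∑ n : N, f0 n * F n
  -- the pairing on the intersection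
  have hT : ∀ (E : Subgroup G) (φ : E → ℂ), T (indFun E φ) =
      ((E ⊔ N).index : ℂ) * classInner (fun d : ↥(E ⊓ N) => ϑ ⟨(d : G), d.2.2⟩ * φ ⟨(d : G), d.2.1⟩)
        (fun d : ↥(E ⊓ N) => ϑ ⟨(d : G), d.2.2⟩) := by
    intro E φ
    have h1 : ∀ x : G, ∑ n : N, f0 n * extendByZero E φ (x⁻¹ * n * x) = ∑ n : N, f0 n * extendByZero E φ (n : G) := by
      intro x
      refine Fintype.sum_equiv (MulAut.conjNormal x⁻¹).toEquiv _ _ fun n => ?_
      show _ = f0 _ * _
      rw [MulEquiv.toEquiv_eq_coe, MulEquiv.coe_toEquiv, MulAut.conjNormal_apply, inv_inv]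
      congr 1
      rw [hf0, show (x⁻¹ * (n : G) * x) = ((⟨x⁻¹ * n * x⁻¹⁻¹, hN.conj_mem (n : G) n.2 x⁻¹⟩ : N) : G) by simp, hf0,
        hinv x⁻¹ n]
    have h2 : T (indFun E φ) = (Nat.card N : ℂ)⁻¹ * ((Nat.card E : ℂ)⁻¹ * ((Nat.card G : ℂ) *
        ∑ d : ↥(E ⊓ N), f0 d * φ ⟨(d : G), d.2.1⟩)) := by
      simp only [T, indFun]
      congr 1
      rw [Finset.sum_congr rfl (g := fun n : N => (Nat.card E : ℂ)⁻¹ * ∑ x : G, f0 n * extendByZero E φ (x⁻¹ * n * x))
        (fun n _ => by rw [← Finset.mul_sum]; ring), ← Finset.mul_sum, Finset.sum_comm]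
      congr 1
      rw [Finset.sum_congr rfl fun x _ => h1 x, Finset.sum_const, Finset.card_univ, nsmul_eq_mul, sum_inf,
        Nat.card_eq_fintype_card]
    have h3 : ∑ d : ↥(E ⊓ N), f0 d * φ ⟨(d : G), d.2.1⟩ =
        ∑ d : ↥(E ⊓ N), ϑ ⟨(d : G), d.2.2⟩ * φ ⟨(d : G), d.2.1⟩ * conj (ϑ ⟨(d : G), d.2.2⟩) := by
      refine Finset.sum_congr rfl fun d _ => ?_
      rw [show f0 d = f0 ((⟨(d : G), d.2.2⟩ : N) : G) from rfl, hf0]; ring
    rw [h2, h3, classInner_eq]
    have hc : (Nat.card E : ℂ) * Nat.card N = Nat.card ↥(E ⊔ N) * Nat.card ↥(E ⊓ N) := by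
      exact_mod_cast sup_card N E
    have hG : (Nat.card G : ℂ) = Nat.card ↥(E ⊔ N) * ((E ⊔ N).index : ℂ) := by
      exact_mod_cast ((E ⊔ N).card_mul_index).symm
    have hE : (Nat.card E : ℂ) ≠ 0 := Nat.cast_ne_zero.2 Nat.card_pos.ne'
    have hN0 : (Nat.card N : ℂ) ≠ 0 := Nat.cast_ne_zero.2 Nat.card_pos.ne'
    have hD : (Nat.card ↥(E ⊓ N) : ℂ) ≠ 0 := Nat.cast_ne_zero.2 Nat.card_pos.ne'
    rw [hG]; field_simp
    linear_combination -(((E ⊔ N).index : ℂ) * ∑ d : ↥(E ⊓ N), ϑ ⟨(d : G), d.2.2⟩ * φ ⟨(d : G), d.2.1⟩ * conj (ϑ ⟨(d : G), d.2.2⟩)) * hc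
  have hres : ∀ E : Subgroup G, IsCharacter ↥(E ⊓ N) fun d : ↥(E ⊓ N) => ϑ ⟨(d : G), d.2.2⟩ := fun E =>
    isCharacter_comp (isCharacter_of_irr hϑ) (Subgroup.inclusion inf_le_right)
  have hinner : ∀ (E : Subgroup G) (φ : E → ℂ), IsCharacter E φ → ∃ j : ℕ,
      classInner (fun d : ↥(E ⊓ N) => ϑ ⟨(d : G), d.2.2⟩ * φ ⟨(d : G), d.2.1⟩)
        (fun d : ↥(E ⊓ N) => ϑ ⟨(d : G), d.2.2⟩) = j := fun E φ hφ =>
    classInner_characters_nat (isCharacter_mul (hres E) (isCharacter_comp hφ (Subgroup.inclusion inf_le_left))) (hres E)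
  -- some generator pairs to something prime to `p`
  have hex : ∃ (E : Subgroup G) (φ : E → ℂ) (j : ℕ), Cfsg.IsElementary p E ∧ IsCharacter E φ ∧ E ⊔ N = ⊤ ∧
      ¬ p ∣ j ∧ classInner (fun d : ↥(E ⊓ N) => ϑ ⟨(d : G), d.2.2⟩ * φ ⟨(d : G), d.2.1⟩)
        (fun d : ↥(E ⊓ N) => ϑ ⟨(d : G), d.2.2⟩) = j := by
    by_contra hne
    push Not at hne
    have hall : ∀ F ∈ BrauerLocal.localSpan p G, ∃ j : ℤ, T F = ((p : ℤ) * j : ℤ) := by
      intro F hF
      induction hF using AddSubgroup.closure_induction with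
      | mem F hF =>
        obtain ⟨E, φ, hE, hφ, rfl⟩ := hF
        obtain ⟨j, hj⟩ := hinner E φ hφ
        rw [hT, hj]
        by_cases htop : E ⊔ N = ⊤
        · have hpj : p ∣ j := by
            by_contra hpj
            exact hne E φ j hE hφ htop hpj hj
          obtain ⟨i, hi⟩ := hpj
          exact ⟨i, by rw [htop, Subgroup.index_top, hi]; push_cast; ring⟩
        · obtain ⟨i, hi⟩ := index_dvd_of_sup_ne_top hp.out hk (le_sup_right : N ≤ E ⊔ N) htop
          exact ⟨i * j, by rw [hi]; push_cast; ring⟩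
      | zero => exact ⟨0, by simp [T]⟩
      | add a b _ _ ha hb =>
        obtain ⟨i, hi⟩ := ha
        obtain ⟨j, hj⟩ := hb
        refine ⟨i + j, ?_⟩
        have : T (a + b) = T a + T b := by simp [T, mul_add, Finset.sum_add_distrib]
        rw [this, hi, hj]; push_cast; ring
      | neg a _ ha =>
        obtain ⟨i, hi⟩ := ha
        refine ⟨-i, ?_⟩
        have : T (-a) = -T a := by simp [T]
        rw [this, hi]; push_cast; ring
    obtain ⟨j, hj⟩ := hall _ hmem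
    refine hm ⟨j, ?_⟩
    have h1 : T (fun _ => (m : ℂ)) = m := by
      simp only [T, hf0, ← Finset.sum_mul, ← mul_assoc]
      rw [← classInner_eq ϑ ϑ, classInner_self hϑ, one_mul]
    rw [h1] at hj
    exact_mod_cast hj
  obtain ⟨E, φ, j, hE, hφ, htop, hpj, hj⟩ := hex
  refine ⟨E, hE, htop, fun {inst} => ?_⟩
  obtain rfl : inst = Fintype.ofFinite _ := Subsingleton.elim _ _
  set D := E ⊓ N with hD
  haveI := Fintype.ofFinite (IrrCharacter D)
  letI : MulAction E (IrrCharacter D) :=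
    { smul := fun g ψ => Blocks.twistChar (infConj E N g⁻¹) ψ
      one_smul := fun ψ => Subtype.ext (funext fun x => by
        show (ψ : D → ℂ) (infConj E N (1 : E)⁻¹ x) = _
        rw [inv_one, map_one]; rfl)
      mul_smul := fun s t ψ => Subtype.ext (funext fun x => by
        show (ψ : D → ℂ) (infConj E N (s * t)⁻¹ x) = (ψ : D → ℂ) (infConj E N t⁻¹ (infConj E N s⁻¹ x))
        rw [mul_inv_rev, map_mul]; rfl) }
  set θD : D → ℂ := fun d => ϑ ⟨(d : G), d.2.2⟩ with hθD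
  set θφ : D → ℂ := fun d => ϑ ⟨(d : G), d.2.2⟩ * φ ⟨(d : G), d.2.1⟩ with hθφ
  have hθDi : ∀ (g : E) (x : D), θD (infConj E N g x) = θD x := fun g x => hinv (g : G) ⟨(x : G), x.2.2⟩
  have hθφi : ∀ (g : E) (x : D), θφ (infConj E N g x) = θφ x := fun g x => by
    show θD (infConj E N g x) * φ (g * ⟨(x : G), x.2.1⟩ * g⁻¹) = _
    rw [hθDi, CharBasics.isClassFunction hφ]
  have hchar : IsCharacter D θφ :=
    isCharacter_mul (hres E) (isCharacter_comp hφ (Subgroup.inclusion inf_le_left))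
  choose a ha using fun ψ : IrrCharacter D => classInner_character_nat (hres E) ψ
  choose b hb using fun ψ : IrrCharacter D => classInner_character_nat hchar ψ
  have hsum : ((∑ ψ : IrrCharacter D, (a ψ : ℤ) * b ψ : ℤ) : ℂ) = (j : ℂ) := by
    have hexp : θD = _ := classFun_expand (CharBasics.isClassFunction (hres E))
    rw [← hj]
    show _ = classInner θφ θD
    conv_rhs => rw [hexp]
    rw [classInner_sum_right, Int.cast_sum]
    refine Finset.sum_congr rfl fun ψ _ => ?_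
    rw [Exceptional.classInner_smul_right, ha, hb, Complex.conj_natCast]
    push_cast; ring
  have hsum' : ∑ ψ : IrrCharacter D, (a ψ : ℤ) * b ψ = (j : ℤ) := by exact_mod_cast hsum
  have hinvar : ∀ (F : D → ℂ), (∀ (g : E) (x : D), F (infConj E N g x) = F x) → ∀ (g : E) (ψ : IrrCharacter D),
      classInner F ((g • ψ : IrrCharacter D) : D → ℂ) = classInner F (ψ : D → ℂ) := by
    intro F hF g ψ
    conv_rhs => rw [← Clifford.classInner_comp_equiv (infConj E N g⁻¹)]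
    congr 1
    funext x
    exact (hF g⁻¹ x).symm
  obtain ⟨P⟩ := (inferInstance : Nonempty (Sylow p E))
  obtain ⟨x, hxc, -, hsplit⟩ := elementary_split hE P
  obtain ⟨ψ, hfix, hψ⟩ := exists_fixed_not_dvd (S := (P : Subgroup E)) (X := IrrCharacter D) P.2
    (fun ψ => (a ψ : ℤ) * b ψ) (fun s ψ => by
      have h1 : a ((s : E) • ψ) = a ψ := by
        have := hinvar θD hθDi (s : E) ψ
        rw [ha, ha] at this; exact_mod_cast this
      have h2 : b ((s : E) • ψ) = b ψ := by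
        have := hinvar θφ hθφi (s : E) ψ
        rw [hb, hb] at this; exact_mod_cast this
      show (a ((s : E) • ψ) : ℤ) * b ((s : E) • ψ) = _
      rw [h1, h2])
    (by rw [hsum']; exact fun h => hpj (Int.natCast_dvd_natCast.1 h))
  refine ⟨ψ, fun g d => ?_, a ψ, fun h => hψ (Dvd.dvd.mul_right (Int.natCast_dvd_natCast.2 h) _), by convert ha ψ⟩
  obtain ⟨i, u, hu, hg⟩ := hsplit g⁻¹
  have hx : ∀ i : ℤ, (x ^ i : E) • ψ = ψ := fun i => Subtype.ext (funext fun y => by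
    show (ψ : D → ℂ) (infConj E N (x ^ i)⁻¹ y) = _
    refine congrArg _ (Subtype.ext ?_)
    show ((x ^ i)⁻¹ : E).1 * y * (((x ^ i)⁻¹ : E).1)⁻¹ = y
    have hc := congrArg Subtype.val (Subgroup.mem_center_iff.1
      ((Subgroup.center E).inv_mem ((Subgroup.center E).zpow_mem hxc i)) ⟨(y : G), y.2.1⟩)
    simp only [Subgroup.coe_mul] at hc
    rw [← hc, mul_inv_cancel_right])
  have hgf : (g⁻¹ : E) • ψ = ψ := by
    rw [hg, mul_smul, show (u : E) • ψ = ψ from hfix ⟨u, hu⟩, hx]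
  have := congrFun (congrArg (fun c : IrrCharacter D => (c : D → ℂ)) hgf) d
  have h' : (ψ : D → ℂ) (infConj E N g⁻¹⁻¹ d) = (ψ : D → ℂ) d := this
  rwa [inv_inv] at h'

/-- Extension from a normal subgroup of `p`-power index. -/
theorem extends_of_central [Fintype G] {p : ℕ} [hp : Fact p.Prime] (N : Subgroup G) [hN : N.Normal]
    (hind : ∃ k : ℕ, N.index = p ^ k) (P : Sylow p G)
    (hcent : ∀ x ∈ (P : Subgroup G) ⊓ N, ∀ y ∈ (P : Subgroup G), x * y = y * x)
    (hlin : ∀ lam : ↥((P : Subgroup G) ⊓ N) → ℂ, IsCharacter ↥((P : Subgroup G) ⊓ N) lam → lam 1 = 1 →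
      ∃ μ : ↥(P : Subgroup G) → ℂ, IsCharacter ↥(P : Subgroup G) μ ∧ μ 1 = 1 ∧
        ∀ x : ↥((P : Subgroup G) ⊓ N), μ ⟨(x : G), x.2.1⟩ = lam x)
    {ϑ : N → ℂ} (hϑ : IsIrrCharacter N ϑ)
    (hinv : ∀ (g : G) (n : N), ϑ ⟨g * n * g⁻¹, hN.conj_mem (n : G) n.2 g⟩ = ϑ n) :
    ∃ χ : G → ℂ, IsIrrCharacter G χ ∧ ∀ n : N, χ n = ϑ n := by
  classical
  haveI : ∀ K : Subgroup G, Fintype K := fun K => Fintype.ofFinite _
  obtain ⟨E, hE, htop, hψ⟩ := detect N hind hϑ hinv
  obtain ⟨ψ, hψinv, m, hm, hmψ⟩ := hψ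
  obtain ⟨k, hk⟩ := hind
  -- commutators in `P` avoid `N`
  have hPN : ∀ a ∈ (P : Subgroup G) ⊓ N, a ∈ ⁅(P : Subgroup G), (P : Subgroup G)⁆ → a = 1 := by
    intro a ha hac
    by_contra ha1
    haveI : IsMulCommutative ↥((P : Subgroup G) ⊓ N) :=
      ⟨⟨fun u v => Subtype.ext (hcent _ u.2 _ v.2.1)⟩⟩
    letI : CommGroup ↥((P : Subgroup G) ⊓ N) :=
      { (inferInstance : Group ↥((P : Subgroup G) ⊓ N)) with mul_comm := fun u v => Subtype.ext (hcent _ u.2 _ v.2.1) }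
    obtain ⟨l, hl⟩ := CommGroup.exists_apply_ne_one_of_hasEnoughRootsOfUnity ↥((P : Subgroup G) ⊓ N) ℂ
      (a := ⟨a, ha⟩) (fun h => ha1 (congrArg Subtype.val h))
    obtain ⟨μ, hμ, hμ1, hμl⟩ := hlin _ (BrauerInd.isCharacter_linear l) (by simp)
    obtain ⟨f, rfl⟩ := Clifford.exists_hom_of_linear hμ hμ1
    have hker : ⁅(P : Subgroup G), (P : Subgroup G)⁆ ≤ (f.toHomUnits.ker).map (P : Subgroup G).subtype := by
      rw [Subgroup.commutator_le]
      intro u hu v hv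
      refine ⟨⁅(⟨u, hu⟩ : (P : Subgroup G)), ⟨v, hv⟩⁆, MonoidHom.mem_ker.2 ?_, rfl⟩
      rw [map_commutatorElement, commutatorElement_eq_one_iff_mul_comm, mul_comm]
    obtain ⟨z, hz, hza⟩ := hker hac
    apply hl
    apply Units.ext
    rw [← hμl ⟨a, ha⟩, Units.val_one]
    have hz' : (⟨a, ha.1⟩ : (P : Subgroup G)) = z := Subtype.ext hza.symm
    show f ⟨a, ha.1⟩ = 1
    rw [hz']
    have := congrArg (fun w : ℂˣ => (w : ℂ)) (MonoidHom.mem_ker.1 hz)
    simpa using this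
  -- the intersection is central in `E`
  obtain ⟨Q⟩ := (inferInstance : Nonempty (Sylow p E))
  obtain ⟨x, hxc, hxp, hsplit⟩ := elementary_split hE Q
  obtain ⟨S, hS⟩ := (Q.2.map E.subtype).exists_le_sylow
  obtain ⟨g, rfl⟩ := MulAction.exists_smul_eq G P S
  have hQP : ∀ u ∈ (Q : Subgroup E), g⁻¹ * (u : G) * g ∈ (P : Subgroup G) := by
    intro u hu
    have h : (u : G) ∈ ((g • P : Sylow p G) : Subgroup G) := hS ⟨u, hu, rfl⟩
    rw [Sylow.coe_subgroup_smul, Subgroup.mem_pointwise_smul_iff_inv_smul_mem] at h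
    simpa [mul_assoc] using h
  have hxN : (x : G) ∈ N := by
    rw [← QuotientGroup.eq_one_iff, ← orderOf_eq_one_iff]
    refine Nat.eq_one_of_dvd_coprimes (hxp.pow_right k) ?_ (hk ▸ orderOf_dvd_natCard _)
    exact (orderOf_map_dvd (QuotientGroup.mk' N) (x : G)).trans (by rw [Subgroup.orderOf_coe])
  have hxi : ∀ i : ℤ, ∀ w : E, x ^ i * w = w * x ^ i := fun i w =>
    (Subgroup.mem_center_iff.1 ((Subgroup.center E).zpow_mem hxc i) w).symm
  have hdec : ∀ d : ↥(E ⊓ N), ∃ i : ℤ, ∃ u ∈ (Q : Subgroup E), (u : G) ∈ N ∧ (⟨(d : G), d.2.1⟩ : E) = x ^ i * u := by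
    intro d
    obtain ⟨i, u, hu, h⟩ := hsplit ⟨(d : G), d.2.1⟩
    refine ⟨i, u, hu, ?_, h⟩
    have h' : (d : G) = (x : G) ^ i * (u : G) := by simpa using congrArg Subtype.val h
    rw [show (u : G) = ((x : G) ^ i)⁻¹ * d by rw [h', inv_mul_cancel_left]]
    exact N.mul_mem (N.inv_mem (N.zpow_mem hxN i)) d.2.2
  have hcentral : ∀ d : ↥(E ⊓ N), ∀ w : E, (d : G) * (w : G) = (w : G) * d := by
    intro d w
    obtain ⟨i, u, hu, huN, hd⟩ := hdec d
    obtain ⟨i', v, hv, hw⟩ := hsplit w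
    have huv : u * v = v * u := by
      apply Subtype.ext
      have h := hcent _ (⟨hQP u hu, by simpa using hN.conj_mem _ huN g⁻¹⟩ : g⁻¹ * (u : G) * g ∈ (P : Subgroup G) ⊓ N)
        _ (hQP v hv)
      exact mul_right_cancel (b := g) (by simpa [mul_assoc] using h)
    have : (⟨(d : G), d.2.1⟩ : E) * w = w * ⟨(d : G), d.2.1⟩ := by
      rw [hd, hw]
      have c1 : Commute (x ^ i) (x ^ i' * v) := hxi i _
      have c2 : Commute u (x ^ i' * v) := Commute.mul_right (hxi i' u).symm huv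
      exact (c1.mul_left c2).eq
    exact congrArg Subtype.val this
  haveI : IsMulCommutative ↥(E ⊓ N) := ⟨⟨fun u v => Subtype.ext (hcentral u ⟨(v : G), v.2.1⟩)⟩⟩
  obtain ⟨hψ1, -⟩ := irr_comm_hom ψ.2
  obtain ⟨f, hf⟩ := Clifford.exists_hom_of_linear (isCharacter_of_irr ψ.2) hψ1
  -- extension to `E`
  let q : E →* Abelianization E := Abelianization.of
  let ι : ↥(E ⊓ N) →* Abelianization E := q.comp (Subgroup.inclusion inf_le_left)
  have hcomm : commutator E ≤ ⁅(Q : Subgroup E), (Q : Subgroup E)⁆ := by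
    rw [commutator_def, Subgroup.commutator_le]
    intro a _ b _
    obtain ⟨i, u, hu, rfl⟩ := hsplit a
    obtain ⟨i', v, hv, rfl⟩ := hsplit b
    have : ⁅x ^ i * u, x ^ i' * v⁆ = ⁅u, v⁆ := by
      simp only [commutatorElement_def, mul_inv_rev]
      have c1 : Commute (x ^ i) (x ^ i' * v * u⁻¹) := hxi i _
      have c2 : Commute (x ^ i') (u⁻¹) := hxi i' _
      calc x ^ i * u * (x ^ i' * v) * (u⁻¹ * (x ^ i)⁻¹) * (v⁻¹ * (x ^ i')⁻¹)
          = x ^ i * (u * (x ^ i' * v) * u⁻¹) * (x ^ i)⁻¹ * (v⁻¹ * (x ^ i')⁻¹) := by simp [mul_assoc]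
        _ = u * (x ^ i' * v) * u⁻¹ * (v⁻¹ * (x ^ i')⁻¹) := by rw [hxi i, mul_inv_cancel_right]
        _ = x ^ i' * (u * v * u⁻¹ * v⁻¹) * (x ^ i')⁻¹ := by
          rw [← mul_assoc u, ← hxi i' u]; simp [mul_assoc]
        _ = _ := by rw [hxi i', mul_inv_cancel_right]
    rw [this]
    exact Subgroup.commutator_mem_commutator hu hv
  have hinj : Function.Injective ι := by
    rw [← MonoidHom.ker_eq_bot_iff, eq_bot_iff]
    intro d hd
    have hd' : (⟨(d : G), d.2.1⟩ : E) ∈ commutator E := by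
      rw [← Abelianization.ker_of]; exact hd
    have hc1 := hcomm hd'
    have hdQ : (⟨(d : G), d.2.1⟩ : E) ∈ (Q : Subgroup E) :=
      (Subgroup.commutator_le.2 fun a ha b hb => Subgroup.mul_mem _ (Subgroup.mul_mem _
        (Subgroup.mul_mem _ ha hb) (Subgroup.inv_mem _ ha)) (Subgroup.inv_mem _ hb)) hc1
    have hmap : g⁻¹ * (d : G) * g ∈ ⁅(P : Subgroup G), (P : Subgroup G)⁆ := by
      let c : E →* G := (MulAut.conj g⁻¹).toMonoidHom.comp E.subtype
      have hle : (Q : Subgroup E).map c ≤ (P : Subgroup G) := by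
        rintro _ ⟨u, hu, rfl⟩; simpa [c] using hQP u hu
      have h2 : c ⟨(d : G), d.2.1⟩ ∈ (⁅(Q : Subgroup E), (Q : Subgroup E)⁆).map c := Subgroup.mem_map_of_mem c hc1
      rw [Subgroup.map_commutator] at h2
      simpa [c] using Subgroup.commutator_mono hle hle h2
    have := hPN _ ⟨hQP _ hdQ, by simpa using hN.conj_mem _ d.2.2 g⁻¹⟩ hmap
    have e := congrArg (fun z => g * z * g⁻¹) this
    simp only [mul_assoc, mul_inv_cancel_left, mul_inv_cancel, mul_one] at e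
    exact Subtype.ext e
  obtain ⟨F, hF⟩ := MonoidHom.domRestrict_surjective ℂ ι.range
    (f.toHomUnits.comp (MonoidHom.ofInjective hinj).symm.toMonoidHom)
  let μ : E → ℂ := fun w => ((F.comp q) w : ℂ)
  have hμ : IsCharacter E μ := BrauerInd.isCharacter_linear _
  have hμψ : ∀ d : ↥(E ⊓ N), μ ⟨(d : G), d.2.1⟩ = (ψ : ↥(E ⊓ N) → ℂ) d := by
    intro d
    have h := DFunLike.congr_fun hF (⟨ι d, d, rfl⟩ : ι.range)
    have hsymm : (MonoidHom.ofInjective hinj).symm (⟨ι d, d, rfl⟩ : ι.range) = d :=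
      (MonoidHom.ofInjective hinj).symm_apply_apply d
    simp only [MonoidHom.domRestrictHom_apply, MonoidHom.domRestrict_apply, MonoidHom.coe_comp,
      MulEquiv.coe_toMonoidHom, Function.comp_apply, hsymm] at h
    show ((F (ι d) : ℂˣ) : ℂ) = _
    rw [h, hf]; simp
  -- a constituent of the induced character
  have hres : classInner (fun n : N => indFun E μ n) ϑ = (m : ℂ) := by
    have h1 : ∀ x : G, ∑ n : N, conj (ϑ n) * extendByZero E μ (x⁻¹ * n * x) =
        ∑ n : N, conj (ϑ n) * extendByZero E μ (n : G) := by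
      intro x
      refine Fintype.sum_equiv (MulAut.conjNormal x⁻¹).toEquiv _ _ fun n => ?_
      show _ = conj (ϑ (MulAut.conjNormal x⁻¹ n)) * extendByZero E μ ((MulAut.conjNormal x⁻¹ n : N) : G)
      rw [MulAut.conjNormal_apply, inv_inv]
      congr 2
      refine ((hinv x⁻¹ n).symm.trans (congrArg ϑ (Subtype.ext ?_)))
      rw [MulAut.conjNormal_apply]
    rw [classInner_eq]
    simp only [indFun]
    rw [Finset.sum_congr rfl (g := fun n : N => (Nat.card E : ℂ)⁻¹ * ∑ x : G, conj (ϑ n) * extendByZero E μ (x⁻¹ * n * x))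
        (fun n _ => by rw [← Finset.mul_sum]; ring), ← Finset.mul_sum, Finset.sum_comm,
      Finset.sum_congr rfl fun x _ => h1 x, Finset.sum_const, Finset.card_univ, nsmul_eq_mul,
      ← Nat.card_eq_fintype_card]
    have h2 : ∑ n : N, conj (ϑ n) * extendByZero E μ (n : G) =
        ∑ d : ↥(E ⊓ N), conj (ϑ ⟨(d : G), d.2.2⟩) * (ψ : ↥(E ⊓ N) → ℂ) d := by
      let c : G → ℂ := fun g => if h : g ∈ N then conj (ϑ ⟨g, h⟩) else 0
      have := sum_inf N E c μ
      simp only [hμψ] at this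
      rw [Finset.sum_congr rfl (g := fun n : N => c n * extendByZero E μ (n : G)) (fun n _ => by simp [c]), this]
      exact Finset.sum_congr rfl fun d _ => by
        have hdN : (d : G) ∈ N := d.2.2
        simp [c, hdN]
    have h3 : ∑ d : ↥(E ⊓ N), conj (ϑ ⟨(d : G), d.2.2⟩) * (ψ : ↥(E ⊓ N) → ℂ) d = (Nat.card ↥(E ⊓ N) : ℂ) * m := by
      have := congrArg conj hmψ
      rw [Complex.conj_natCast, classInner_eq, map_mul, map_inv₀, Complex.conj_natCast, map_sum] at this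
      rw [← this, mul_inv_cancel_left₀ (Nat.cast_ne_zero.2 Nat.card_pos.ne')]
      exact Finset.sum_congr rfl fun d _ => by simp
    rw [h2, h3]
    have hc := sup_card N E
    rw [htop, Subgroup.card_top] at hc
    have hc' : (Nat.card E : ℂ) * Nat.card N = Nat.card G * Nat.card ↥(E ⊓ N) := by exact_mod_cast hc
    have hE0 : (Nat.card E : ℂ) ≠ 0 := Nat.cast_ne_zero.2 Nat.card_pos.ne'
    have hN0 : (Nat.card N : ℂ) ≠ 0 := Nat.cast_ne_zero.2 Nat.card_pos.ne'
    field_simp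
    linear_combination -(m : ℂ) * hc'
  obtain ⟨r, χs, hχs, hsum⟩ := exists_decomp (isCharacter_indFun E hμ)
  choose e he using fun i => classInner_characters_nat (isCharacter_restrict (isCharacter_of_irr (hχs i)) N)
    (isCharacter_of_irr hϑ)
  have hme : (∑ i, e i) = m := by
    have : ((∑ i, e i : ℕ) : ℂ) = (m : ℂ) := by
      rw [← hres, Nat.cast_sum, hsum]
      simp only [Finset.sum_apply]
      rw [show (fun n : N => ∑ i, χs i (n : G)) = ∑ i, fun n : N => χs i n from by funext n; simp,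
        classInner_sum_left]
      exact Finset.sum_congr rfl fun i _ => (he i).symm
    exact_mod_cast this
  obtain ⟨i, hi⟩ : ∃ i, ¬ p ∣ e i := by
    by_contra h
    push Not at h
    exact hm (hme ▸ Finset.dvd_sum fun i _ => h i)
  have hconj : ∀ g : G, Clifford.conjFun g ϑ = ϑ := fun g => funext fun n => hinv g n
  have hne : classInner (fun n : N => χs i n) ϑ ≠ 0 := by
    rw [he]; exact Nat.cast_ne_zero.2 fun h => hi (h ▸ dvd_zero p)
  have hr := Clifford.restrict_eq_smul_of_invariant (hχs i) hϑ hconj hne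
  have hr' : ∀ n : N, χs i n = (e i : ℂ) * ϑ n := fun n => by
    have := congrFun hr n; simpa [he] using this
  have hdvd := Clifford.charMult_dvd_index (hχs i) hϑ hconj (e i) hr'
  rw [hk] at hdvd
  obtain ⟨j, -, hj⟩ := (Nat.dvd_prime_pow hp.out).1 hdvd
  rcases j with _ | j
  · exact ⟨χs i, hχs i, fun n => by rw [hr', hj]; simp⟩
  · exact absurd (hj ▸ dvd_pow_self p (Nat.succ_ne_zero j)) hi

end CfsgLib.PDetect
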